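import Cfsg.Prelude.Def_LieExceptional

set_option autoImplicit false

namespace Cfsg.Agent.Helper3

open Cfsg DoubleCoset

variable {G : Type*} [Group G]

/-- `g ∈ B n B`. -/
def DC (P : BNPair G) (n g : G) : Prop := ∃ b ∈ P.B, ∃ b' ∈ P.B, g = b * n * b'

theorem dc_iff (P : BNPair G) {n g : G} :
    g ∈ doubleCoset n (P.B : Set G) P.B ↔ DC P n g := by
  rw [mem_doubleCoset]; rfl

theorem dc_refl (P : BNPair G) (n : G) : DC P n n :=
  ⟨1, P.B.one_mem, 1, P.B.one_mem, by simp⟩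

theorem dc_symm (P : BNPair G) {n g : G} (h : DC P n g) : DC P g n := by
  obtain ⟨b, hb, b', hb', rfl⟩ := h
  exact ⟨b⁻¹, P.B.inv_mem hb, b'⁻¹, P.B.inv_mem hb', by group⟩

theorem dc_trans (P : BNPair G) {n m g : G} (h : DC P n m) (h' : DC P m g) : DC P n g := by
  obtain ⟨b, hb, b', hb', rfl⟩ := h
  obtain ⟨c, hc, c', hc', rfl⟩ := h'
  exact ⟨c * b, P.B.mul_mem hc hb, b' * c', P.B.mul_mem hb' hc', by group⟩

theorem dc_mul_left (P : BNPair G) {n g b : G} (hb : b ∈ P.B) (h : DC P n g) : DC P n (b * g) := by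
  obtain ⟨c, hc, c', hc', rfl⟩ := h
  exact ⟨b * c, P.B.mul_mem hb hc, c', hc', by group⟩

theorem dc_mul_right (P : BNPair G) {n g b : G} (hb : b ∈ P.B) (h : DC P n g) : DC P n (g * b) := by
  obtain ⟨c, hc, c', hc', rfl⟩ := h
  exact ⟨c, hc, c' * b, P.B.mul_mem hc' hb, by group⟩

theorem dc_base_right (P : BNPair G) {n g b : G} (hb : b ∈ P.B) (h : DC P (n * b) g) : DC P n g :=
  dc_trans P (dc_mul_right P hb (dc_refl P n)) h

theorem dc_base_left (P : BNPair G) {n g b : G} (hb : b ∈ P.B) (h : DC P (b * n) g) : DC P n g :=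
  dc_trans P (dc_mul_left P hb (dc_refl P n)) h

theorem dc_inv (P : BNPair G) {n g : G} (h : DC P n g) : DC P n⁻¹ g⁻¹ := by
  obtain ⟨c, hc, c', hc', rfl⟩ := h
  exact ⟨c'⁻¹, P.B.inv_mem hc', c⁻¹, P.B.inv_mem hc, by group⟩

theorem dc_of_mem_B (P : BNPair G) {n g : G} (hn : n ∈ P.B) (h : DC P n g) : g ∈ P.B := by
  obtain ⟨c, hc, c', hc', rfl⟩ := h
  exact P.B.mul_mem (P.B.mul_mem hc hn) hc'

theorem dc_of_mem_B' (P : BNPair G) {n g : G} (hn : n ∈ P.B) (hg : g ∈ P.B) : DC P n g :=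
  ⟨g * n⁻¹, P.B.mul_mem hg (P.B.inv_mem hn), 1, P.B.one_mem, by group⟩

/-- `T = B ⊓ N` is normal in `N`. -/
theorem T_conj (P : BNPair G) {n t : G} (hn : n ∈ P.N) (ht : t ∈ P.B ⊓ P.N) :
    n * t * n⁻¹ ∈ P.B ⊓ P.N :=
  ⟨P.conj_mem n hn t ht, P.N.mul_mem (P.N.mul_mem hn ht.2) (P.N.inv_mem hn)⟩

theorem T_conj' (P : BNPair G) {n t : G} (hn : n ∈ P.N) (ht : t ∈ P.B ⊓ P.N) :
    n⁻¹ * t * n ∈ P.B ⊓ P.N := by
  simpa using T_conj P (P.N.inv_mem hn) ht

theorem S_sq (P : BNPair G) {s : G} (hs : s ∈ P.S) : s * s ∈ P.B ⊓ P.N :=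
  ⟨P.sq_mem s hs, P.N.mul_mem (P.subset hs) (P.subset hs)⟩

theorem S_inv_sq (P : BNPair G) {s : G} (hs : s ∈ P.S) : (s * s)⁻¹ ∈ P.B ⊓ P.N :=
  (P.B ⊓ P.N).inv_mem (S_sq P hs)

theorem S_exists_not_mem (P : BNPair G) {s : G} (hs : s ∈ P.S) : ∃ b ∈ P.B, s * b * s ∉ P.B := by
  by_contra hcon
  push Not at hcon
  apply P.conj_ne s hs
  apply Set.Subset.antisymm
  · rintro _ ⟨b, hb, rfl⟩
    exact hcon b hb
  · intro b hb
    have h1 : s * ((s * s)⁻¹ * b) * s ∈ P.B :=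
      hcon _ (P.B.mul_mem (S_inv_sq P hs).1 hb)
    refine ⟨s * ((s * s)⁻¹ * b) * s * (s * s)⁻¹, P.B.mul_mem h1 (S_inv_sq P hs).1, ?_⟩
    show s * (s * ((s * s)⁻¹ * b) * s * (s * s)⁻¹) * s = b
    group

theorem S_not_mem_B (P : BNPair G) {s : G} (hs : s ∈ P.S) : s ∉ P.B := by
  intro h
  obtain ⟨b, hb, hnb⟩ := S_exists_not_mem P hs
  exact hnb (P.B.mul_mem (P.B.mul_mem h hb) h)

/-- left form of the axiom -/
theorem ax_left (P : BNPair G) {s n b : G} (hs : s ∈ P.S) (hn : n ∈ P.N) (hb : b ∈ P.B) :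
    DC P (s * n) (s * b * n) ∨ DC P n (s * b * n) := by
  have := P.mul_mem_union s hs n hn b hb
  rcases this with h | h
  · exact Or.inl ((dc_iff P).1 h)
  · exact Or.inr ((dc_iff P).1 h)

/-- right form of the axiom -/
theorem ax_right (P : BNPair G) {s n b : G} (hs : s ∈ P.S) (hn : n ∈ P.N) (hb : b ∈ P.B) :
    DC P (n * s) (n * b * s) ∨ DC P n (n * b * s) := by
  have h := ax_left P hs (P.N.inv_mem hn) (P.B.mul_mem (S_inv_sq P hs).1 (P.B.inv_mem hb))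
  have e : (s * ((s * s)⁻¹ * b⁻¹) * n⁻¹)⁻¹ = n * b * s := by group
  rcases h with h | h
  · left
    have h2 := dc_inv P h
    rw [e] at h2
    have e2 : (s * n⁻¹)⁻¹ = n * s * (s * s)⁻¹ := by group
    rw [e2] at h2
    exact dc_base_right P (S_inv_sq P hs).1 h2
  · right
    have h2 := dc_inv P h
    rw [e] at h2
    simpa using h2

/-- generic closure lemma -/
theorem closure_subset_of_mul_mem {A X : Set G} (h1 : (1 : G) ∈ X)
    (hmul : ∀ a ∈ A, ∀ x ∈ X, a * x ∈ X) (hinv : ∀ a ∈ A, ∀ x ∈ X, a⁻¹ * x ∈ X) :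
    ∀ g ∈ Subgroup.closure A, g ∈ X := by
  intro g hg
  induction hg using Subgroup.closure_induction_left with
  | one => exact h1
  | mul_left x hx y hy ih => exact hmul x hx y ih
  | inv_mul_cancel x hx y hy ih => exact hinv x hx y ih

/-- word decomposition in `closure J ⊔ T` -/
theorem exists_word (P : BNPair G) {J : Set G} (hJ : J ⊆ P.S) :
    ∀ n ∈ Subgroup.closure (J ∪ ((P.B ⊓ P.N : Subgroup G) : Set G)),
      ∃ l : List G, (∀ x ∈ l, x ∈ J) ∧ l.prod⁻¹ * n ∈ P.B ⊓ P.N := by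
  have hprodN : ∀ l : List G, (∀ x ∈ l, x ∈ J) → l.prod ∈ P.N := by
    intro l hl
    exact list_prod_mem (fun x hx => P.subset (hJ (hl x hx)))
  apply closure_subset_of_mul_mem (X := {n | ∃ l : List G, (∀ x ∈ l, x ∈ J) ∧ l.prod⁻¹ * n ∈ P.B ⊓ P.N})
  · exact ⟨[], by simp, by simp⟩
  · rintro a (ha | ha) x ⟨l, hl, hx⟩
    · refine ⟨a :: l, ?_, ?_⟩
      · intro y hy
        rcases List.mem_cons.1 hy with rfl | hy
        · exact ha
        · exact hl y hy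
      · have : (a :: l).prod⁻¹ * (a * x) = l.prod⁻¹ * x := by
          rw [List.prod_cons]; group
        rw [this]; exact hx
    · refine ⟨l, hl, ?_⟩
      have : l.prod⁻¹ * (a * x) = (l.prod⁻¹ * a * l.prod) * (l.prod⁻¹ * x) := by group
      rw [this]
      exact (P.B ⊓ P.N).mul_mem (T_conj' P (hprodN l hl) ha) hx
  · rintro a (ha | ha) x ⟨l, hl, hx⟩
    · refine ⟨a :: l, ?_, ?_⟩
      · intro y hy
        rcases List.mem_cons.1 hy with rfl | hy
        · exact ha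
        · exact hl y hy
      · have : (a :: l).prod⁻¹ * (a⁻¹ * x) = (l.prod⁻¹ * (a * a)⁻¹ * l.prod) * (l.prod⁻¹ * x) := by
          rw [List.prod_cons]; group
        rw [this]
        exact (P.B ⊓ P.N).mul_mem (T_conj' P (hprodN l hl) (S_inv_sq P (hJ ha))) hx
    · refine ⟨l, hl, ?_⟩
      have : l.prod⁻¹ * (a⁻¹ * x) = (l.prod⁻¹ * a⁻¹ * l.prod) * (l.prod⁻¹ * x) := by group
      rw [this]
      exact (P.B ⊓ P.N).mul_mem (T_conj' P (hprodN l hl) ((P.B ⊓ P.N).inv_mem ha)) hx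

theorem word_mem_N (P : BNPair G) {l : List G} (hl : ∀ x ∈ l, x ∈ P.S) : l.prod ∈ P.N :=
  list_prod_mem (fun x hx => P.subset (hl x hx))

theorem exists_word_N (P : BNPair G) {n : G} (hn : n ∈ P.N) :
    ∃ l : List G, (∀ x ∈ l, x ∈ P.S) ∧ l.prod⁻¹ * n ∈ P.B ⊓ P.N := by
  apply exists_word P (subset_refl _)
  have h := P.closure_sup
  rw [← h] at hn
  have : Subgroup.closure P.S ⊔ (P.B ⊓ P.N) = Subgroup.closure (P.S ∪ ((P.B ⊓ P.N : Subgroup G) : Set G)) := by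
    rw [Subgroup.closure_union, Subgroup.closure_eq]
  rw [← this]; exact hn

/-- Bruhat decomposition -/
theorem bruhat (P : BNPair G) (g : G) : ∃ n ∈ P.N, DC P n g := by
  have hg : g ∈ Subgroup.closure ((P.B : Set G) ∪ P.N) := by
    have : Subgroup.closure ((P.B : Set G) ∪ P.N) = P.B ⊔ P.N := by
      rw [Subgroup.closure_union, Subgroup.closure_eq, Subgroup.closure_eq]
    rw [this, P.sup_eq_top]; trivial
  revert g
  have key : ∀ m ∈ P.N, ∀ x, (∃ n ∈ P.N, DC P n x) → ∃ n ∈ P.N, DC P n (m * x) := by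
    intro m hm
    obtain ⟨l, hl, ht⟩ := exists_word_N P hm
    have hm' : m = l.prod * (l.prod⁻¹ * m) := by group
    rw [hm']
    generalize l.prod⁻¹ * m = t at ht
    clear hm'
    induction l with
    | nil =>
      rintro x ⟨n, hn, hx⟩
      exact ⟨n, hn, by simpa using dc_mul_left P ht.1 hx⟩
    | cons s l ih =>
      intro x hx
      obtain ⟨n, hn, b, hb, b', hb', h⟩ := ih (fun y hy => hl y (List.mem_cons_of_mem _ hy)) x hx
      have hs : s ∈ P.S := hl s List.mem_cons_self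
      have e : (s :: l).prod * t * x = s * b * n * b' := by
        rw [List.prod_cons, mul_assoc, mul_assoc, ← mul_assoc l.prod, h]; group
      rw [e]
      rcases ax_left P hs hn hb with h1 | h1
      · exact ⟨s * n, P.N.mul_mem (P.subset hs) hn, dc_mul_right P hb' h1⟩
      · exact ⟨n, hn, dc_mul_right P hb' h1⟩
  apply closure_subset_of_mul_mem (X := {x | ∃ n ∈ P.N, DC P n x})
  · exact ⟨1, P.N.one_mem, dc_refl P 1⟩
  · rintro a (ha | ha) x hx
    · obtain ⟨n, hn, hx⟩ := hx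
      exact ⟨n, hn, dc_mul_left P ha hx⟩
    · exact key a ha x hx
  · rintro a (ha | ha) x hx
    · obtain ⟨n, hn, hx⟩ := hx
      exact ⟨n, hn, dc_mul_left P (P.B.inv_mem ha) hx⟩
    · exact key a⁻¹ (P.N.inv_mem ha) x hx

end Cfsg.Agent.Helper3
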