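import Cfsg.Agent.Helper3.BN

set_option autoImplicit false

namespace Cfsg.Agent.Helper3

open Cfsg DoubleCoset

variable {G : Type*} [Group G]

/-- `n ≡ n'` modulo `T = B ⊓ N` (on the right). -/
def Cg (P : BNPair G) (n n' : G) : Prop := n⁻¹ * n' ∈ P.B ⊓ P.N

theorem cg_refl (P : BNPair G) (n : G) : Cg P n n := by
  unfold Cg; rw [inv_mul_cancel]; exact (P.B ⊓ P.N).one_mem

theorem cg_symm (P : BNPair G) {n n' : G} (h : Cg P n n') : Cg P n' n := by
  have h2 := (P.B ⊓ P.N).inv_mem h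
  unfold Cg
  have e : (n⁻¹ * n')⁻¹ = n'⁻¹ * n := by group
  rw [e] at h2; exact h2

theorem cg_trans (P : BNPair G) {a b c : G} (h : Cg P a b) (h' : Cg P b c) : Cg P a c := by
  have h2 := (P.B ⊓ P.N).mul_mem h h'
  unfold Cg
  have e : a⁻¹ * b * (b⁻¹ * c) = a⁻¹ * c := by group
  rw [e] at h2; exact h2

theorem cg_mul_left (P : BNPair G) (g : G) {n n' : G} (h : Cg P n n') : Cg P (g * n) (g * n') := by
  unfold Cg
  have e : (g * n)⁻¹ * (g * n') = n⁻¹ * n' := by group
  rw [e]; exact h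

theorem cg_mul_right (P : BNPair G) {m n n' : G} (hm : m ∈ P.N) (h : Cg P n n') :
    Cg P (n * m) (n' * m) := by
  have h2 := T_conj' P hm h
  unfold Cg
  have e : (n * m)⁻¹ * (n' * m) = m⁻¹ * (n⁻¹ * n') * m := by group
  rw [e]; exact h2

theorem cg_mem_N (P : BNPair G) {n n' : G} (hn : n ∈ P.N) (h : Cg P n n') : n' ∈ P.N := by
  have h2 := P.N.mul_mem hn h.2
  have e : n * (n⁻¹ * n') = n' := by group
  rw [e] at h2; exact h2

theorem cg_dc (P : BNPair G) {n n' : G} (h : Cg P n n') : DC P n n' :=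
  ⟨1, P.B.one_mem, n⁻¹ * n', h.1, by group⟩

theorem cg_sq (P : BNPair G) {s n : G} (hs : s ∈ P.S) (hn : n ∈ P.N) : Cg P (s * (s * n)) n := by
  have h2 := T_conj' P hn (S_inv_sq P hs)
  unfold Cg
  have e : (s * (s * n))⁻¹ * n = n⁻¹ * (s * s)⁻¹ * n := by group
  rw [e]; exact h2

theorem cg_sq' (P : BNPair G) {s n : G} (hs : s ∈ P.S) (_hn : n ∈ P.N) : Cg P (n * s * s) n := by
  unfold Cg
  have e : (n * s * s)⁻¹ * n = (s * s)⁻¹ := by group
  rw [e]; exact S_inv_sq P hs

/-- `n` has a word of length `k`. -/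
def HasLen (P : BNPair G) (n : G) (k : ℕ) : Prop :=
  ∃ l : List G, (∀ x ∈ l, x ∈ P.S) ∧ l.length = k ∧ Cg P l.prod n

theorem hasLen_cg (P : BNPair G) {n n' : G} {k : ℕ} (h : HasLen P n k) (hc : Cg P n n') :
    HasLen P n' k := by
  obtain ⟨l, hl, hk, h⟩ := h
  exact ⟨l, hl, hk, cg_trans P h hc⟩

theorem hasLen_mem_N (P : BNPair G) {n : G} {k : ℕ} (h : HasLen P n k) : n ∈ P.N := by
  obtain ⟨l, hl, hk, h⟩ := h
  exact cg_mem_N P (word_mem_N P hl) h

theorem hasLen_zero (P : BNPair G) {n : G} (h : HasLen P n 0) : n ∈ P.B ⊓ P.N := by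
  obtain ⟨l, hl, hk, h⟩ := h
  have : l = [] := List.length_eq_zero_iff.1 hk
  subst this
  unfold Cg at h
  simpa using h

theorem hasLen_mul_S (P : BNPair G) {s n : G} {k : ℕ} (hs : s ∈ P.S) (h : HasLen P n k) :
    HasLen P (s * n) (k + 1) := by
  obtain ⟨l, hl, hk, h⟩ := h
  refine ⟨s :: l, ?_, by simp [hk], ?_⟩
  · intro y hy
    rcases List.mem_cons.1 hy with rfl | hy
    · exact hs
    · exact hl y hy
  · rw [List.prod_cons]; exact cg_mul_left P s h

theorem hasLen_inv_mul_S (P : BNPair G) {s n : G} {k : ℕ} (hs : s ∈ P.S) (h : HasLen P n k) :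
    HasLen P (s⁻¹ * n) (k + 1) := by
  have hn := hasLen_mem_N P h
  have h1 := hasLen_mul_S P hs h
  refine hasLen_cg P h1 ?_
  have h2 := T_conj' P hn (S_inv_sq P hs)
  unfold Cg
  have e : (s * n)⁻¹ * (s⁻¹ * n) = n⁻¹ * (s * s)⁻¹ * n := by group
  rw [e]; exact h2

theorem exists_hasLen (P : BNPair G) {n : G} (hn : n ∈ P.N) : ∃ k, HasLen P n k := by
  obtain ⟨l, hl, h⟩ := exists_word_N P hn
  exact ⟨l.length, l, hl, rfl, h⟩

theorem unique_aux (P : BNPair G) : ∀ (k : ℕ) (n n' : G), HasLen P n k →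
    (∀ j < k, ¬ HasLen P n' j) → n' ∈ P.N → DC P n n' → Cg P n n' := by
  intro k
  induction k with
  | zero =>
    intro n n' h _ hn' hdc
    have hn := hasLen_zero P h
    have := dc_of_mem_B P hn.1 hdc
    exact (P.B ⊓ P.N).mul_mem ((P.B ⊓ P.N).inv_mem hn) ⟨this, hn'⟩
  | succ k ih =>
    intro n n' h hmin hn' hdc
    have hn := hasLen_mem_N P h
    obtain ⟨l, hl, hk, hcg⟩ := h
    match l, hl, hk, hcg with
    | [], _, hk, _ => simp at hk
    | s :: l, hl, hk, hcg =>
      have hs : s ∈ P.S := hl s List.mem_cons_self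
      have hl' : ∀ x ∈ l, x ∈ P.S := fun x hx => hl x (List.mem_cons_of_mem _ hx)
      have hm : HasLen P (s⁻¹ * n) k := by
        refine ⟨l, hl', by simpa using hk, ?_⟩
        unfold Cg at hcg ⊢
        have e : l.prod⁻¹ * (s⁻¹ * n) = (s :: l).prod⁻¹ * n := by
          rw [List.prod_cons]; group
        rw [e]; exact hcg
      obtain ⟨b, hb, b', hb', hnb⟩ := dc_symm P hdc
      have e1 : s⁻¹ * n = s * ((s * s)⁻¹ * b) * n' * b' := by
        rw [hnb]; group
      rcases ax_left P hs hn' (P.B.mul_mem (S_inv_sq P hs).1 hb) with h1 | h1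
      · have h2 : DC P (s * n') (s⁻¹ * n) := by
          rw [e1]; exact dc_mul_right P hb' h1
        have h3 : ∀ j < k, ¬ HasLen P (s * n') j := by
          intro j hj hlen
          have := hasLen_inv_mul_S P hs hlen
          rw [inv_mul_cancel_left] at this
          exact hmin (j + 1) (by omega) this
        have h4 := ih (s⁻¹ * n) (s * n') hm h3 (P.N.mul_mem (P.subset hs) hn') (dc_symm P h2)
        have h5 := T_conj' P hn' (S_inv_sq P hs)
        have h6 := (P.B ⊓ P.N).mul_mem h4 h5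
        unfold Cg
        have e : (s⁻¹ * n)⁻¹ * (s * n') * (n'⁻¹ * (s * s)⁻¹ * n') = n⁻¹ * n' := by group
        rw [e] at h6; exact h6
      · have h2 : DC P n' (s⁻¹ * n) := by
          rw [e1]; exact dc_mul_right P hb' h1
        have h3 : ∀ j < k, ¬ HasLen P n' j := fun j hj => hmin j (by omega)
        have h4 := ih (s⁻¹ * n) n' hm h3 hn' (dc_symm P h2)
        exact absurd (hasLen_cg P hm h4) (hmin k (by omega))

/-- Bruhat uniqueness -/
theorem unique (P : BNPair G) {n n' : G} (hn : n ∈ P.N) (hn' : n' ∈ P.N) (h : DC P n n') :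
    Cg P n n' := by
  classical
  have e1 := exists_hasLen P hn
  have e2 := exists_hasLen P hn'
  by_cases hle : Nat.find e1 ≤ Nat.find e2
  · exact unique_aux P (Nat.find e1) n n' (Nat.find_spec e1)
      (fun j hj => Nat.find_min e2 (lt_of_lt_of_le hj hle)) hn' h
  · exact cg_symm P (unique_aux P (Nat.find e2) n' n (Nat.find_spec e2)
      (fun j hj => Nat.find_min e1 (by omega)) hn (dc_symm P h))

theorem S_not_cg (P : BNPair G) {s n : G} (hs : s ∈ P.S) (hn : n ∈ P.N) : ¬ Cg P n (s * n) := by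
  intro h
  have h2 := T_conj P hn h
  have e : n * (n⁻¹ * (s * n)) * n⁻¹ = s := by group
  rw [e] at h2
  exact S_not_mem_B P hs h2.1

/-- `n ∈ P_s`: `s B n ⊆ B s n B`. -/
def Asc (P : BNPair G) (s n : G) : Prop := ∀ b ∈ P.B, DC P (s * n) (s * b * n)

theorem asc_one (P : BNPair G) (s : G) : Asc P s 1 := by
  intro b hb
  exact ⟨1, P.B.one_mem, b, hb, by group⟩

theorem asc_cg (P : BNPair G) {s n n' : G} (hc : Cg P n n') (h : Asc P s n) : Asc P s n' := by
  intro b hb
  have h1 := dc_mul_right P hc.1 (h b hb)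
  have e : s * b * n * (n⁻¹ * n') = s * b * n' := by group
  rw [e] at h1
  have h2 : DC P (s * n') (s * n) := by
    have := dc_mul_right P ((P.B ⊓ P.N).inv_mem hc).1 (dc_refl P (s * n'))
    have e2 : s * n' * (n⁻¹ * n')⁻¹ = s * n := by group
    rw [e2] at this; exact this
  exact dc_trans P h2 h1

theorem not_asc_both (P : BNPair G) {s n : G} (hs : s ∈ P.S) (hn : n ∈ P.N) :
    ¬ (Asc P s n ∧ Asc P s (s * n)) := by
  rintro ⟨h1, h2⟩
  obtain ⟨b0, hb0, hnb⟩ := S_exists_not_mem P hs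
  have hsN := P.subset hs
  rcases ax_left P hs hsN hb0 with h | h
  · exact hnb (dc_of_mem_B P (S_sq P hs).1 h)
  · obtain ⟨b1, hb1, b2, hb2, e⟩ := h
    have k1 := h2 b0 hb0
    have k2 := dc_mul_left P hb1 (h1 b2 hb2)
    have e2 : b1 * (s * b2 * n) = s * b0 * (s * n) := by
      have : s * b0 * (s * n) = (s * b0 * s) * n := by group
      rw [this, e]; group
    rw [e2] at k2
    have k3 := dc_trans P k2 (dc_symm P k1)
    have k4 := unique P (P.N.mul_mem hsN hn) (P.N.mul_mem hsN (P.N.mul_mem hsN hn)) k3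
    have k5 := cg_trans P (cg_symm P (cg_sq P hs hn)) (cg_symm P k4)
    exact S_not_cg P hs hn k5

theorem asc_step (P : BNPair G) {s s' n : G} (hs : s ∈ P.S) (hs' : s' ∈ P.S) (hn : n ∈ P.N)
    (h1 : Asc P s n) (h2 : ¬ Asc P s (n * s')) : Cg P (s * n) (n * s') := by
  unfold Asc at h2
  push Not at h2
  obtain ⟨b, hb, hnb⟩ := h2
  have hsN := P.subset hs
  have hs'N := P.subset hs'
  have hns' := P.N.mul_mem hn hs'N
  rcases ax_left P hs hns' hb with h | h
  · exact absurd h hnb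
  · obtain ⟨b1, hb1, b2, hb2, e⟩ := h
    have e1 : s * b * n = b1 * ((n * s') * (b2 * (s' * s')⁻¹) * s') := by
      have : s * b * n = (s * b * (n * s')) * s'⁻¹ := by group
      rw [this, e]; group
    have k0 := h1 b hb
    rcases ax_right P hs' hns' (P.B.mul_mem hb2 (S_inv_sq P hs').1) with h | h
    · exfalso
      have k1 : DC P n (s * b * n) := by
        rw [e1]
        apply dc_mul_left P hb1
        refine dc_trans P ?_ h
        exact cg_dc P (cg_symm P (cg_sq' P hs' hn))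
      have k2 := dc_trans P k1 (dc_symm P k0)
      exact S_not_cg P hs hn (unique P hn (P.N.mul_mem hsN hn) k2)
    · have k1 : DC P (n * s') (s * b * n) := by
        rw [e1]; exact dc_mul_left P hb1 h
      have k2 := dc_trans P k0 (dc_symm P k1)
      exact unique P (P.N.mul_mem hsN hn) hns' k2

theorem exchange_aux (P : BNPair G) {s : G} (hs : s ∈ P.S) : ∀ l : List G, (∀ x ∈ l, x ∈ P.S) →
    ¬ Asc P s l.prod → ∃ l1 x l2, l = l1 ++ x :: l2 ∧ Cg P (s * l1.prod) (l1.prod * x) := by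
  intro l
  induction l using List.reverseRecOn with
  | nil =>
    intro _ h
    exact absurd (by simpa using asc_one P s) h
  | append_singleton l x ih =>
    intro hl h
    have hl' : ∀ y ∈ l, y ∈ P.S := fun y hy => hl y (List.mem_append_left _ hy)
    have hx : x ∈ P.S := hl x (by simp)
    by_cases ha : Asc P s l.prod
    · refine ⟨l, x, [], rfl, ?_⟩
      apply asc_step P hs hx (word_mem_N P hl') ha
      simpa using h
    · obtain ⟨l1, y, l2, e, hc⟩ := ih hl' ha
      exact ⟨l1, y, l2 ++ [x], by simp [e], hc⟩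

theorem exchange (P : BNPair G) {s : G} (hs : s ∈ P.S) {l : List G} (hl : ∀ x ∈ l, x ∈ P.S)
    (h : ¬ Asc P s l.prod) :
    ∃ l1 x l2, l = l1 ++ x :: l2 ∧ Cg P (l1 ++ l2).prod (s * l.prod) := by
  obtain ⟨l1, x, l2, e, hc⟩ := exchange_aux P hs l hl h
  refine ⟨l1, x, l2, e, ?_⟩
  subst e
  have hx : x ∈ P.S := hl x (by simp)
  have hl2 : ∀ y ∈ l2, y ∈ P.S := fun y hy => hl y (by simp [hy])
  have hl2N := word_mem_N P hl2
  have k1 := cg_mul_right P (P.N.mul_mem (P.subset hx) hl2N) hc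
  have k2 : Cg P (l1.prod * x * (x * l2.prod)) (l1.prod * l2.prod) := by
    have := cg_mul_left P l1.prod (cg_sq P hx hl2N)
    have e : l1.prod * (x * (x * l2.prod)) = l1.prod * x * (x * l2.prod) := by group
    rw [e] at this; exact this
  have k3 := cg_trans P k1 k2
  have e3 : s * l1.prod * (x * l2.prod) = s * (l1 ++ x :: l2).prod := by
    simp [mul_assoc]
  rw [e3] at k3
  simpa using cg_symm P k3

theorem hasLen_of_not_asc (P : BNPair G) {s n : G} {k : ℕ} (hs : s ∈ P.S) (h : ¬ Asc P s n)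
    (hk : HasLen P n k) : ∃ j, j + 1 = k ∧ HasLen P (s * n) j := by
  obtain ⟨l, hl, hlen, hc⟩ := hk
  have h' : ¬ Asc P s l.prod := fun ha => h (asc_cg P hc ha)
  obtain ⟨l1, x, l2, e, hc2⟩ := exchange P hs hl h'
  refine ⟨(l1 ++ l2).length, ?_, l1 ++ l2, ?_, rfl, cg_trans P hc2 (cg_mul_left P s hc)⟩
  · rw [← hlen, e]; simp; omega
  · intro y hy
    apply hl y
    rw [e]
    rcases List.mem_append.1 hy with hy | hy
    · simp [hy]
    · simp [hy]

theorem hasLen_of_asc (P : BNPair G) {s n : G} {k : ℕ} (hs : s ∈ P.S) (hn : n ∈ P.N)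
    (h : Asc P s n) (hk : HasLen P (s * n) k) : ∃ j, j + 1 = k ∧ HasLen P n j := by
  have h2 : ¬ Asc P s (s * n) := fun h2 => not_asc_both P hs hn ⟨h, h2⟩
  obtain ⟨j, hj, hlen⟩ := hasLen_of_not_asc P hs h2 hk
  exact ⟨j, hj, hasLen_cg P hlen (cg_sq P hs hn)⟩

/-- reduced words -/
def Red (P : BNPair G) (l : List G) : Prop :=
  (∀ x ∈ l, x ∈ P.S) ∧ ∀ j < l.length, ¬ HasLen P l.prod j

theorem red_nil (P : BNPair G) : Red P [] := ⟨by simp, by simp⟩

theorem red_tail (P : BNPair G) {s : G} {l : List G} (h : Red P (s :: l)) : Red P l := by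
  refine ⟨fun x hx => h.1 x (List.mem_cons_of_mem _ hx), fun j hj hlen => ?_⟩
  have := hasLen_mul_S P (h.1 s List.mem_cons_self) hlen
  rw [← List.prod_cons] at this
  exact h.2 (j + 1) (by simp; omega) this

theorem red_not_asc (P : BNPair G) {s : G} {l : List G} (h : Red P (s :: l)) :
    ¬ Asc P s (s * l.prod) := by
  intro ha
  have hs := h.1 s List.mem_cons_self
  have hl : ∀ x ∈ l, x ∈ P.S := fun x hx => h.1 x (List.mem_cons_of_mem _ hx)
  have hw := word_mem_N P hl
  have h1 : ¬ Asc P s l.prod := fun h1 => not_asc_both P hs hw ⟨h1, ha⟩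
  obtain ⟨j, hj, hlen⟩ := hasLen_of_not_asc P hs h1 ⟨l, hl, rfl, cg_refl P _⟩
  rw [← List.prod_cons] at hlen
  exact h.2 j (by simp; omega) hlen

theorem exists_red (P : BNPair G) {n : G} (hn : n ∈ P.N) : ∃ l, Red P l ∧ Cg P l.prod n := by
  classical
  have e1 := exists_hasLen P hn
  obtain ⟨l, hl, hlen, hc⟩ := Nat.find_spec e1
  refine ⟨l, ⟨hl, fun j hj hlen2 => ?_⟩, hc⟩
  exact Nat.find_min e1 (by omega) (hasLen_cg P hlen2 hc)

/-- the letters of a reduced word lie in any subgroup containing `B` and `w B w⁻¹`. -/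
theorem red_letters (P : BNPair G) : ∀ l : List G, Red P l → ∀ H : Subgroup G, P.B ≤ H →
    (∀ b ∈ P.B, l.prod * b * l.prod⁻¹ ∈ H) → ∀ x ∈ l, x ∈ H := by
  intro l
  induction l with
  | nil => intro _ _ _ _ x hx; simp at hx
  | cons s l ih =>
    intro hred H hBH hconj
    have hs := hred.1 s List.mem_cons_self
    have hl : ∀ x ∈ l, x ∈ P.S := fun x hx => hred.1 x (List.mem_cons_of_mem _ hx)
    have hw := word_mem_N P hl
    have hna := red_not_asc P hred
    unfold Asc at hna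
    push Not at hna
    obtain ⟨b, hb, hnb⟩ := hna
    have hsH : s ∈ H := by
      rcases ax_left P hs (P.N.mul_mem (P.subset hs) hw) hb with h | h
      · exact absurd h hnb
      · obtain ⟨b1, hb1, b2, hb2, e⟩ := h
        have e2 : s = b1 * ((s :: l).prod * b2 * (s :: l).prod⁻¹) * b⁻¹ := by
          rw [List.prod_cons]
          calc s = (s * b * (s * l.prod)) * (s * l.prod)⁻¹ * b⁻¹ := by group
            _ = (b1 * (s * l.prod) * b2) * (s * l.prod)⁻¹ * b⁻¹ := by rw [e]
            _ = b1 * (s * l.prod * b2 * (s * l.prod)⁻¹) * b⁻¹ := by group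
        rw [e2]
        exact H.mul_mem (H.mul_mem (hBH hb1) (hconj b2 hb2)) (H.inv_mem (hBH hb))
    intro x hx
    rcases List.mem_cons.1 hx with rfl | hx
    · exact hsH
    · apply ih (red_tail P hred) H hBH _ x hx
      intro b hb
      have := H.mul_mem (H.mul_mem (H.inv_mem hsH) (hconj b hb)) hsH
      have e : s⁻¹ * ((s :: l).prod * b * (s :: l).prod⁻¹) * s = l.prod * b * l.prod⁻¹ := by
        rw [List.prod_cons]; group
      rw [e] at this; exact this

theorem deletion (P : BNPair G) : ∀ l : List G, (∀ x ∈ l, x ∈ P.S) → ¬ Red P l →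
    ∃ l' : List G, l'.Sublist l ∧ l'.length < l.length ∧ Cg P l'.prod l.prod := by
  intro l
  induction l with
  | nil => intro _ h; exact absurd (red_nil P) h
  | cons s l ih =>
    intro hl hnr
    have hs := hl s List.mem_cons_self
    have hl' : ∀ x ∈ l, x ∈ P.S := fun x hx => hl x (List.mem_cons_of_mem _ hx)
    have hw := word_mem_N P hl'
    by_cases hr : Red P l
    · have hex : ∃ j < (s :: l).length, HasLen P (s :: l).prod j := by
        by_contra hcon
        push Not at hcon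
        exact hnr ⟨hl, hcon⟩
      obtain ⟨j, hj, hlen⟩ := hex
      rw [List.prod_cons] at hlen
      have hna : ¬ Asc P s l.prod := by
        intro ha
        obtain ⟨j', hj', hlen'⟩ := hasLen_of_asc P hs hw ha hlen
        exact hr.2 j' (by simp at hj; omega) hlen'
      obtain ⟨l1, x, l2, e, hc⟩ := exchange P hs hl' hna
      refine ⟨l1 ++ l2, ?_, ?_, ?_⟩
      · rw [e]
        apply List.Sublist.cons
        exact List.Sublist.append (List.Sublist.refl l1) (List.sublist_cons_self x l2)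
      · rw [e]; simp
      · rw [List.prod_cons]; exact hc
    · obtain ⟨l', hsub, hlt, hc⟩ := ih hl' hr
      refine ⟨s :: l', List.Sublist.cons_cons s hsub, by simpa using hlt, ?_⟩
      rw [List.prod_cons, List.prod_cons]
      exact cg_mul_left P s hc

theorem exists_red_word (P : BNPair G) {J : Set G} (hJ : J ⊆ P.S) {n : G}
    (hn : n ∈ Subgroup.closure J) :
    ∃ l : List G, (∀ x ∈ l, x ∈ J) ∧ Red P l ∧ Cg P l.prod n := by
  have h0 : ∃ l : List G, (∀ x ∈ l, x ∈ J) ∧ Cg P l.prod n := by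
    apply exists_word P hJ
    exact Subgroup.closure_mono Set.subset_union_left hn
  obtain ⟨l, hl, hc⟩ := h0
  induction hk : l.length using Nat.strong_induction_on generalizing l with
  | _ k ih =>
    by_cases hr : Red P l
    · exact ⟨l, hl, hr, hc⟩
    · obtain ⟨l', hsub, hlt, hc'⟩ := deletion P l (fun x hx => hJ (hl x hx)) hr
      exact ih l'.length (by omega) l' (fun x hx => hl x (hsub.subset hx)) (cg_trans P hc' hc) rfl

theorem mem_of_cg_closure (P : BNPair G) {J : Set G} (hJ : J ⊆ P.S) {n s : G}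
    (hn : n ∈ Subgroup.closure J) (hs : s ∈ P.S) (hc : Cg P n s) : s ∈ J := by
  obtain ⟨l, hl, hr, hc2⟩ := exists_red_word P hJ hn
  have hc3 := cg_trans P hc2 hc
  match l, hl, hr, hc3 with
  | [], _, _, hc3 =>
    exfalso
    unfold Cg at hc3
    simp only [List.prod_nil, inv_one, one_mul] at hc3
    exact S_not_mem_B P hs hc3.1
  | [x], hl, _, hc3 =>
    have hx : x ∈ J := hl x (by simp)
    simp only [List.prod_singleton] at hc3
    have := P.inj x (hJ hx) s hs hc3.1
    rw [← this]; exact hx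
  | x :: y :: l, _, hr, hc3 =>
    exfalso
    apply hr.2 1 (by simp)
    exact ⟨[s], by simpa using hs, rfl, by simpa using cg_symm P hc3⟩

theorem closure_le_N (P : BNPair G) {J : Set G} (hJ : J ⊆ P.S) : Subgroup.closure J ≤ P.N :=
  (Subgroup.closure_le _).2 (fun _ hx => P.subset (hJ hx))

theorem mem_parabolic_iff (P : BNPair G) {J : Set G} (hJ : J ⊆ P.S) (g : G) :
    g ∈ P.parabolic J ↔ ∃ n ∈ Subgroup.closure J, DC P n g := by
  constructor
  · intro hg
    have hg' : g ∈ Subgroup.closure ((P.B : Set G) ∪ J) := by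
      have : Subgroup.closure ((P.B : Set G) ∪ J) = P.B ⊔ Subgroup.closure J := by
        rw [Subgroup.closure_union, Subgroup.closure_eq]
      rw [this]; exact hg
    revert hg'
    apply closure_subset_of_mul_mem (X := {x | ∃ n ∈ Subgroup.closure J, DC P n x})
    · exact ⟨1, Subgroup.one_mem _, dc_refl P 1⟩
    · rintro a (ha | ha) x ⟨n, hn, hx⟩
      · exact ⟨n, hn, dc_mul_left P ha hx⟩
      · obtain ⟨b, hb, b', hb', rfl⟩ := hx
        have e : a * (b * n * b') = a * b * n * b' := by group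
        rw [e]
        rcases ax_left P (hJ ha) (closure_le_N P hJ hn) hb with h | h
        · exact ⟨a * n, Subgroup.mul_mem _ (Subgroup.subset_closure ha) hn, dc_mul_right P hb' h⟩
        · exact ⟨n, hn, dc_mul_right P hb' h⟩
    · rintro a (ha | ha) x ⟨n, hn, hx⟩
      · exact ⟨n, hn, dc_mul_left P (P.B.inv_mem ha) hx⟩
      · obtain ⟨b, hb, b', hb', rfl⟩ := hx
        have e : a⁻¹ * (b * n * b') = (a * a)⁻¹ * (a * b * n * b') := by group
        rw [e]
        rcases ax_left P (hJ ha) (closure_le_N P hJ hn) hb with h | h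
        · exact ⟨a * n, Subgroup.mul_mem _ (Subgroup.subset_closure ha) hn,
            dc_mul_left P (S_inv_sq P (hJ ha)).1 (dc_mul_right P hb' h)⟩
        · exact ⟨n, hn, dc_mul_left P (S_inv_sq P (hJ ha)).1 (dc_mul_right P hb' h)⟩
  · rintro ⟨n, hn, b, hb, b', hb', rfl⟩
    have hB : P.B ≤ P.parabolic J := le_sup_left
    have hJ' : Subgroup.closure J ≤ P.parabolic J := le_sup_right
    exact Subgroup.mul_mem _ (Subgroup.mul_mem _ (hB hb) (hJ' hn)) (hB hb')

theorem B_le_parabolic (P : BNPair G) (J : Set G) : P.B ≤ P.parabolic J := le_sup_left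

theorem subset_parabolic (P : BNPair G) (J : Set G) : J ⊆ (P.parabolic J : Set G) :=
  fun _ hx => (le_sup_right : Subgroup.closure J ≤ P.parabolic J) (Subgroup.subset_closure hx)

theorem parabolic_mono (P : BNPair G) {J K : Set G} (h : J ⊆ K) : P.parabolic J ≤ P.parabolic K :=
  sup_le_sup_left (Subgroup.closure_mono h) _

theorem parabolic_le (P : BNPair G) {J : Set G} {M : Subgroup G} (hB : P.B ≤ M)
    (hJ : J ⊆ (M : Set G)) : P.parabolic J ≤ M :=
  sup_le hB ((Subgroup.closure_le _).2 hJ)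

/-- an element of `N` lying in a subgroup `M ⊇ B` lies in the parabolic of `S ∩ M` -/
theorem mem_parabolic_of_mem (P : BNPair G) {M : Subgroup G} (hM : P.B ≤ M) {n : G}
    (hn : n ∈ P.N) (hnM : n ∈ M) : n ∈ P.parabolic {s | s ∈ P.S ∧ s ∈ M} := by
  obtain ⟨l, hr, hc⟩ := exists_red P hn
  have hlM : l.prod ∈ M := by
    have : l.prod = n * (l.prod⁻¹ * n)⁻¹ := by group
    rw [this]
    exact M.mul_mem hnM (M.inv_mem (hM hc.1))
  have hlet := red_letters P l hr M hM
    (fun b hb => M.mul_mem (M.mul_mem hlM (hM hb)) (M.inv_mem hlM))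
  have h1 : l.prod ∈ P.parabolic {s | s ∈ P.S ∧ s ∈ M} := by
    apply list_prod_mem
    intro x hx
    exact subset_parabolic P _ ⟨hr.1 x hx, hlet x hx⟩
  have : n = l.prod * (l.prod⁻¹ * n) := by group
  rw [this]
  exact Subgroup.mul_mem _ h1 (B_le_parabolic P _ hc.1)

theorem eq_parabolic (P : BNPair G) (M : Subgroup G) (hM : P.B ≤ M) :
    M = P.parabolic {s | s ∈ P.S ∧ s ∈ M} := by
  apply le_antisymm
  · intro g hg
    obtain ⟨n, hn, b, hb, b', hb', rfl⟩ := bruhat P g
    have hnM : n ∈ M := by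
      have : n = b⁻¹ * (b * n * b') * b'⁻¹ := by group
      rw [this]
      exact M.mul_mem (M.mul_mem (M.inv_mem (hM hb)) hg) (M.inv_mem (hM hb'))
    have h1 := mem_parabolic_of_mem P hM hn hnM
    exact Subgroup.mul_mem _ (Subgroup.mul_mem _ (B_le_parabolic P _ hb) h1) (B_le_parabolic P _ hb')
  · exact parabolic_le P hM (fun _ hs => hs.2)

theorem mem_S_parabolic (P : BNPair G) {J : Set G} (hJ : J ⊆ P.S) {s : G} (hs : s ∈ P.S)
    (h : s ∈ P.parabolic J) : s ∈ J := by
  obtain ⟨n, hn, hdc⟩ := (mem_parabolic_iff P hJ s).1 h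
  exact mem_of_cg_closure P hJ hn hs (unique P (closure_le_N P hJ hn) (P.subset hs) hdc)

theorem parabolic_le_iff (P : BNPair G) {J K : Set G} (hJ : J ⊆ P.S) (hK : K ⊆ P.S) :
    P.parabolic J ≤ P.parabolic K ↔ J ⊆ K :=
  ⟨fun h s hs => mem_S_parabolic P hK (hJ hs) (h (subset_parabolic P J hs)), parabolic_mono P⟩

/-- `n ∈ ⟨B, n B n⁻¹⟩` for `n ∈ N`. -/
theorem mem_of_conj_le (P : BNPair G) {n : G} (hn : n ∈ P.N) {H : Subgroup G} (hB : P.B ≤ H)
    (hconj : ∀ b ∈ P.B, n * b * n⁻¹ ∈ H) : n ∈ H := by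
  obtain ⟨l, hr, hc⟩ := exists_red P hn
  have hlet := red_letters P l hr H hB (by
    intro b hb
    have := hconj ((l.prod⁻¹ * n)⁻¹ * b * (l.prod⁻¹ * n))
      (P.B.mul_mem (P.B.mul_mem (P.B.inv_mem hc.1) hb) hc.1)
    have e : n * ((l.prod⁻¹ * n)⁻¹ * b * (l.prod⁻¹ * n)) * n⁻¹ = l.prod * b * l.prod⁻¹ := by group
    rw [e] at this; exact this)
  have h1 : l.prod ∈ H := list_prod_mem hlet
  have : n = l.prod * (l.prod⁻¹ * n) := by group
  rw [this]
  exact H.mul_mem h1 (hB hc.1)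

end Cfsg.Agent.Helper3
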