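import Cfsg.Agent.Helper3.BN2

set_option autoImplicit false

namespace Cfsg.Agent.Helper3

open Cfsg DoubleCoset

variable {G : Type*} [Group G]

theorem not_red_pair (P : BNPair G) {s : G} {l : List G} : ¬ Red P (s :: s :: l) := by
  intro h
  have hs := h.1 s List.mem_cons_self
  have hl : ∀ x ∈ l, x ∈ P.S := fun x hx =>
    h.1 x (List.mem_cons_of_mem _ (List.mem_cons_of_mem _ hx))
  apply h.2 l.length (by simp)
  refine ⟨l, hl, rfl, ?_⟩
  rw [List.prod_cons, List.prod_cons]
  exact cg_symm P (cg_sq P hs (word_mem_N P hl))

/-- an element of `closure {s}` is congruent to `1` or `s`. -/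
theorem closure_singleton_cases (P : BNPair G) {s : G} (hs : s ∈ P.S) {n : G}
    (hn : n ∈ Subgroup.closure {s}) : n ∈ P.B ∨ Cg P s n := by
  have hJ : ({s} : Set G) ⊆ P.S := by
    intro x hx; rw [Set.mem_singleton_iff] at hx; rw [hx]; exact hs
  obtain ⟨l, hl, hr, hc⟩ := exists_red_word P hJ hn
  match l, hl, hr, hc with
  | [], _, _, hc =>
    left
    unfold Cg at hc
    simp only [List.prod_nil, inv_one, one_mul] at hc
    exact hc.1
  | [x], hl, _, hc =>
    right
    have hx : x = s := by simpa using hl x (by simp)
    subst hx
    simpa using hc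
  | x :: y :: l, hl, hr, _ =>
    exfalso
    have hx : x = s := by simpa using hl x (by simp)
    have hy : y = s := by simpa using hl y (by simp)
    subst hx; subst hy
    exact not_red_pair P hr

/-- In rank one, everything outside `B` lies in `B s B`. -/
theorem rank_one_dc (P : BNPair G) {s : G} (hS : P.S = {s}) {g : G} (hg : g ∉ P.B) : DC P s g := by
  have hs : s ∈ P.S := by rw [hS]; rfl
  obtain ⟨n, hn, hdc⟩ := bruhat P g
  obtain ⟨l, hr, hc⟩ := exists_red P hn
  match l, hr, hc with
  | [], _, hc =>
    exfalso
    unfold Cg at hc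
    simp only [List.prod_nil, inv_one, one_mul] at hc
    exact hg (dc_of_mem_B P hc.1 hdc)
  | [x], hr, hc =>
    have hx : x = s := by
      have := hr.1 x (by simp)
      rw [hS] at this; exact this
    subst hx
    have : Cg P x n := by simpa using hc
    exact dc_trans P (cg_dc P this) hdc
  | x :: y :: l, hr, _ =>
    exfalso
    have hx : x = s := by
      have := hr.1 x (by simp)
      rw [hS] at this; exact this
    have hy : y = s := by
      have := hr.1 y (by simp)
      rw [hS] at this; exact this
    subst hx; subst hy
    exact not_red_pair P hr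

end Cfsg.Agent.Helper3
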