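import Cfsg.Agent.Helper3.BN3
import Cfsg.Agent.Helper3.CoxExch2

set_option autoImplicit false

namespace Cfsg.Agent.Helper3

open Cfsg

variable {G : Type*} [Group G]

omit [Group G] in
theorem lift_list (S : Set G) (l : List G) (hl : ∀ x ∈ l, x ∈ S) :
    ∃ ω : List S, ω.map Subtype.val = l := by
  induction l with
  | nil => exact ⟨[], rfl⟩
  | cons a l ih =>
    obtain ⟨ω, hω⟩ := ih (fun x hx => hl x (List.mem_cons_of_mem _ hx))
    exact ⟨⟨a, hl a List.mem_cons_self⟩ :: ω, by simp [hω]⟩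

theorem val_word (P : BNPair G) (ω : List P.S) : ∀ x ∈ ω.map Subtype.val, x ∈ P.S := by
  intro x hx
  obtain ⟨s, _, rfl⟩ := List.mem_map.1 hx
  exact s.2

/-- The generators of the Weyl group. -/
def weylGen (P : BNPair G) [((P.B ⊓ P.N).subgroupOf P.N).Normal] (s : P.S) :
    P.N ⧸ (P.B ⊓ P.N).subgroupOf P.N :=
  QuotientGroup.mk (⟨(s : G), P.subset s.2⟩ : P.N)

theorem weyl_mk_eq_iff (P : BNPair G) [((P.B ⊓ P.N).subgroupOf P.N).Normal] (n n' : P.N) :
    (QuotientGroup.mk n : P.N ⧸ (P.B ⊓ P.N).subgroupOf P.N) = QuotientGroup.mk n' ↔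
      Cg P (n : G) (n' : G) := by
  rw [QuotientGroup.eq, Subgroup.mem_subgroupOf]
  rfl

theorem weyl_wprod (P : BNPair G) [((P.B ⊓ P.N).subgroupOf P.N).Normal] (ω : List P.S) :
    wprod (weylGen P) ω =
      QuotientGroup.mk (⟨(ω.map Subtype.val).prod, word_mem_N P (val_word P ω)⟩ : P.N) := by
  induction ω with
  | nil => rfl
  | cons s ω ih =>
    rw [wprod_cons, ih]
    rfl

theorem weyl_hasLen (P : BNPair G) [((P.B ⊓ P.N).subgroupOf P.N).Normal] (ω : List P.S)
    (n : G) (k : ℕ) (h : HasLen P n k) (hc : Cg P n (ω.map Subtype.val).prod) :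
    ∃ ω' : List P.S, ω'.length = k ∧ wprod (weylGen P) ω' = wprod (weylGen P) ω := by
  obtain ⟨l, hl, hk, hcg⟩ := h
  obtain ⟨ω', hω'⟩ := lift_list P.S l hl
  refine ⟨ω', by rw [← hk, ← hω']; simp, ?_⟩
  rw [weyl_wprod, weyl_wprod, weyl_mk_eq_iff]
  show Cg P (ω'.map Subtype.val).prod (ω.map Subtype.val).prod
  rw [hω']
  exact cg_trans P hcg hc

theorem weyl_coxeter (P : BNPair G) [hN : ((P.B ⊓ P.N).subgroupOf P.N).Normal] :
    ∃ (M : CoxeterMatrix P.S) (cs : CoxeterSystem M (P.N ⧸ (P.B ⊓ P.N).subgroupOf P.N)),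
      ∀ s : P.S, cs.simple s = QuotientGroup.mk (⟨(s : G), P.subset s.2⟩ : P.N) := by
  have hsq : ∀ s : P.S, weylGen P s * weylGen P s = 1 := by
    intro s
    unfold weylGen
    rw [← QuotientGroup.mk_mul, QuotientGroup.eq_one_iff, Subgroup.mem_subgroupOf]
    exact S_sq P s.2
  have hinj : Function.Injective (weylGen P) := by
    intro s s' h
    unfold weylGen at h
    rw [weyl_mk_eq_iff] at h
    exact Subtype.ext (P.inj s s.2 s' s'.2 h.1)
  have hgen : Subgroup.closure (Set.range (weylGen P)) = ⊤ := by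
    rw [eq_top_iff]
    intro w _
    obtain ⟨⟨n, hn⟩, rfl⟩ := QuotientGroup.mk_surjective w
    obtain ⟨l, hl, hc⟩ := exists_word_N P hn
    obtain ⟨ω, hω⟩ := lift_list P.S l hl
    have e : (QuotientGroup.mk (⟨n, hn⟩ : P.N) : P.N ⧸ (P.B ⊓ P.N).subgroupOf P.N) =
        wprod (weylGen P) ω := by
      rw [weyl_wprod, eq_comm, weyl_mk_eq_iff]
      show Cg P (ω.map Subtype.val).prod n
      rw [hω]; exact hc
    rw [e]
    unfold wprod
    apply list_prod_mem
    intro x hx
    obtain ⟨s, _, rfl⟩ := List.mem_map.1 hx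
    exact Subgroup.subset_closure ⟨s, rfl⟩
  have hex : ∀ (i : P.S) (ω : List P.S), WRed (weylGen P) ω → ¬ WRed (weylGen P) (i :: ω) →
      ∃ j < ω.length, wprod (weylGen P) (i :: ω.eraseIdx j) = wprod (weylGen P) ω := by
    intro i ω hω hnr
    have hl := val_word P ω
    have hna : ¬ Asc P (i : G) (ω.map Subtype.val).prod := by
      intro ha
      apply hnr
      intro ω' h'
      rw [weyl_wprod, weyl_wprod, weyl_mk_eq_iff] at h'
      have h1 : HasLen P ((i : G) * (ω.map Subtype.val).prod) ω'.length := by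
        refine ⟨ω'.map Subtype.val, val_word P ω', by simp, ?_⟩
        have : ((i :: ω).map Subtype.val).prod = (i : G) * (ω.map Subtype.val).prod := by simp
        rw [← this]
        exact h'
      obtain ⟨j, hj, hlen⟩ := hasLen_of_asc P i.2 (word_mem_N P hl) ha h1
      obtain ⟨ω'', hl'', hπ⟩ := weyl_hasLen P ω _ j hlen (cg_refl P _)
      have := hω ω'' hπ
      simp only [List.length_cons]
      omega
    obtain ⟨l1, x, l2, e, hc⟩ := exchange P i.2 hl hna
    refine ⟨l1.length, ?_, ?_⟩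
    · have := congrArg List.length e
      simp at this
      omega
    · rw [weyl_wprod, weyl_wprod, weyl_mk_eq_iff]
      show Cg P ((i :: ω.eraseIdx l1.length).map Subtype.val).prod (ω.map Subtype.val).prod
      have e2 : (ω.eraseIdx l1.length).map Subtype.val = l1 ++ l2 := by
        rw [← List.eraseIdx_map, e, List.eraseIdx_append_of_length_le (le_refl _)]
        simp
      rw [List.map_cons, List.prod_cons, e2]
      exact cg_trans P (cg_mul_left P (i : G) hc) (cg_sq P i.2 (word_mem_N P hl))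
  obtain ⟨cs, hcs⟩ := coxeter_of_exchange (weylGen P) hsq hgen hinj hex
  exact ⟨_, cs, hcs⟩

end Cfsg.Agent.Helper3
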